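import Mathlib
import Cfsg.Prelude.Def_OddOrderLocal
import Cfsg.Agent.Lib.Helper35.BG.Basic
import Cfsg.Agent.Lib.Helper35.BG.Hall
import Cfsg.Agent.Lib.Helper67.BG.Basics
import Cfsg.Agent.Lib.Helper85.BG.Conj
import Cfsg.Agent.Lib.Helper27.BG.SigmaBasic
import Cfsg.Agent.Lib.Helper46.Amalgam
import Cfsg.Statements.S1350
import Cfsg.Statements.S1355
import Cfsg.Statements.S1375
import Cfsg.Statements.S1378
import Cfsg.Statements.S1432
import Cfsg.Statements.S1526

/-!
# S1541 assembly core (Peterfalvi 12.8-style endgame)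

If every maximal subgroup `M` of a minimal simple group of odd order is a Frobenius group with
kernel `M_σ` (every non-identity element of `M_σ` has its centralizer in `M` inside `M_σ`), then
the subgroups `M_σ`, over representatives of the conjugacy classes of maximal subgroups, form a
family of pairwise coprime TI Frobenius kernels whose conjugates cover the non-identity elements
of the group, which the landed statement S1526 excludes.

Inputs are passed as `type_of%` hypotheses (S1350, S1355, S1375, S1378, S1526); the Frobenius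
property is the hypothesis `hFrob`.  An adapter derives `hFrob` from `κ(M) = ∅` and `τ₂(M) = ∅`
for all maximal subgroups through S1432.
-/

set_option autoImplicit false

namespace Cfsg.Agent.Lib.Helper29.PF12

open Cfsg Cfsg.Agent.Lib.Helper46 Cfsg.Agent.Lib.Helper35.BG Cfsg.Agent.Lib.Helper67.BG
  Cfsg.Agent.Lib.Helper85.BG Cfsg.Agent.Lib.Helper27.BG

universe u

variable {G : Type u} [Group G]

/-- The Frobenius hypothesis: every maximal subgroup `M` is a Frobenius group with kernel `M_σ`. -/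
def AllFrob (G : Type u) [Group G] : Prop :=
  ∀ M : Subgroup G, IsCoatom M → ∀ x ∈ sigmaCore M, x ≠ 1 →
    M ⊓ Subgroup.centralizer ({x} : Set G) ≤ sigmaCore M

/-- Under the Frobenius hypothesis, centralizers of non-identity elements of `M_σ` lie in `M`. -/
theorem centralizer_le_of_allFrob [Finite G] (hG : IsMinSimpleOddOrder G)
    (h1375 : type_of% (@Cfsg.CfsgFrozen.S1375 G _ _ hG))
    (hF : AllFrob G) (M : Subgroup G) (hM : IsCoatom M) (x : G) (hx : x ∈ sigmaCore M)
    (hx1 : x ≠ 1) : Subgroup.centralizer ({x} : Set G) ≤ M := by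
  by_contra hxM
  obtain ⟨N, ⟨hN, hCN⟩, -, -, -, hcompl, -, -⟩ := h1375 M hM x hx hx1 hxM
  obtain ⟨-, -, hdisj, hprod⟩ := hcompl
  have hxC : x ∈ Subgroup.centralizer ({x} : Set G) := by
    rw [Subgroup.mem_centralizer_singleton_iff]
  by_cases hB : sigmaCore N ⊓ Subgroup.centralizer ({x} : Set G) = ⊥
  · apply hxM
    intro m hm
    obtain ⟨a, ha, b, hb, rfl⟩ := hprod m hm
    rw [hB, Subgroup.mem_bot] at hb
    rw [hb, mul_one]
    exact (Subgroup.mem_inf.mp ha).1
  · obtain ⟨y, hy1⟩ := (Subgroup.ne_bot_iff_exists_ne_one).mp hB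
    have hy' : (y : G) ∈ sigmaCore N ⊓ Subgroup.centralizer ({x} : Set G) := y.2
    obtain ⟨hyN, hyC⟩ := Subgroup.mem_inf.mp hy'
    have hy1' : (y : G) ≠ 1 := fun h => hy1 (Subtype.ext h)
    have hyx : (y : G) * x = x * y := by
      rw [Subgroup.mem_centralizer_singleton_iff] at hyC
      exact hyC
    have hxN : x ∈ sigmaCore N := by
      apply hF N hN (y : G) hyN hy1'
      refine Subgroup.mem_inf.mpr ⟨hCN hxC, ?_⟩
      rw [Subgroup.mem_centralizer_singleton_iff]
      exact hyx.symm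
    have : x ∈ (M ⊓ Subgroup.centralizer ({x} : Set G)) ⊓
        (sigmaCore N ⊓ Subgroup.centralizer ({x} : Set G)) :=
      Subgroup.mem_inf.mpr ⟨Subgroup.mem_inf.mpr ⟨sigmaCore_le M hx, hxC⟩,
        Subgroup.mem_inf.mpr ⟨hxN, hxC⟩⟩
    rw [hdisj, Subgroup.mem_bot] at this
    exact hx1 this

/-- A nontrivial `p`-subgroup has a non-identity element commuting with all its elements. -/
theorem exists_central_ne_one [Finite G] {p : ℕ} [Fact p.Prime] {P : Subgroup G}
    (hP : IsPGroup p P) (hP1 : P ≠ ⊥) :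
    ∃ z ∈ P, z ≠ 1 ∧ ∀ w ∈ P, w * z = z * w := by
  haveI : Nontrivial P := (Subgroup.nontrivial_iff_ne_bot P).mpr hP1
  haveI := hP.center_nontrivial
  obtain ⟨z, hz⟩ := exists_ne (1 : Subgroup.center P)
  refine ⟨((z : P) : G), (z : P).2, ?_, ?_⟩
  · intro h
    apply hz
    apply Subtype.ext
    apply Subtype.ext
    simpa using h
  · intro w hw
    have := (Subgroup.mem_center_iff.mp z.2) ⟨w, hw⟩
    exact congrArg Subtype.val this

/-- For `p ∈ σ(M)`, `M_σ` contains a Sylow `p`-subgroup of `G`. -/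
theorem exists_sylow_le_sigmaCore [Finite G] (hG : IsMinSimpleOddOrder G)
    (h1350 : type_of% (@Cfsg.CfsgFrozen.S1350 G _ _ hG))
    (M : Subgroup G) (hM : IsCoatom M) (p : ℕ) [Fact p.Prime] (hp : p ∈ sigma M) :
    ∃ P : Subgroup G, IsSylowIn p P ⊤ ∧ P ≤ sigmaCore M := by
  obtain ⟨P, hP, -⟩ := exists_isSylowIn_ge (p := p) (Q := ⊥) (H := M) IsPGroup.of_bot bot_le
  refine ⟨P, isSylowIn_top_of_sigma hp hP, ?_⟩
  apply le_of_coprime_relIndex (sigmaCore_le M) (sigmaCore_normalizer M) hP.1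
  rw [hP.2]
  apply Nat.Coprime.pow_left
  exact (Nat.Prime.coprime_iff_not_dvd Fact.out).mpr ((h1350 M hM).1.2.2 p Fact.out hp)

/-- Under the Frobenius hypothesis, `M_σ` is a TI-subset with normalizer `M`:
an element outside `M` conjugates no non-identity element of `M_σ` into `M_σ`. -/
theorem sigmaCore_TI_of_allFrob [Finite G] (hG : IsMinSimpleOddOrder G)
    (h1350 : type_of% (@Cfsg.CfsgFrozen.S1350 G _ _ hG))
    (h1375 : type_of% (@Cfsg.CfsgFrozen.S1375 G _ _ hG))
    (hF : AllFrob G) (M : Subgroup G) (hM : IsCoatom M) (g : G) (hg : g ∉ M) (x : G)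
    (hx : x ∈ sigmaCore M) (hgx : g * x * g⁻¹ ∈ sigmaCore M) : x = 1 := by
  by_contra hx1
  have key : ∀ y : G, y ∈ sigmaCore M → g * y * g⁻¹ ∈ sigmaCore M → y ≠ 1 →
      ∀ c ∈ Subgroup.centralizer ({y} : Set G), c ∈ sigmaCore M ∧ g * c * g⁻¹ ∈ sigmaCore M := by
    intro y hy hgy hy1 c hc
    have h1 : c ∈ sigmaCore M := hF M hM y hy hy1
      (Subgroup.mem_inf.mpr ⟨centralizer_le_of_allFrob hG h1375 hF M hM y hy hy1 hc, hc⟩)
    have hc' := conj_mem_centralizer_conj hc g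
    have hy1' : g * y * g⁻¹ ≠ 1 := conj_ne_one hy1
    have h2 : g * c * g⁻¹ ∈ sigmaCore M := hF M hM _ hgy hy1'
      (Subgroup.mem_inf.mpr ⟨centralizer_le_of_allFrob hG h1375 hF M hM _ hgy hy1' hc', hc'⟩)
    exact ⟨h1, h2⟩
  obtain ⟨p, hp, hpx⟩ := Nat.exists_prime_and_dvd (orderOf_eq_one_iff.not.mpr hx1)
  haveI : Fact p.Prime := ⟨hp⟩
  set y := x ^ (orderOf x / p) with hy_def
  have hyo : orderOf y = p := orderOf_pow_orderOf_div (orderOf_pos x).ne' hpx
  have hy1 : y ≠ 1 := by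
    intro h
    rw [h, orderOf_one] at hyo
    exact hp.one_lt.ne hyo
  have hyM : y ∈ sigmaCore M := Subgroup.pow_mem _ hx _
  have hgy : g * y * g⁻¹ ∈ sigmaCore M := by
    have : g * y * g⁻¹ = (g * x * g⁻¹) ^ (orderOf x / p) := by rw [conj_pow]
    rw [this]
    exact Subgroup.pow_mem _ hgx _
  have hQ : IsPGroup p (Subgroup.zpowers y) :=
    IsPGroup.of_card (n := 1) (by rw [Nat.card_zpowers, hyo, pow_one])
  obtain ⟨P, hP, hyP⟩ := exists_isSylowIn_ge hQ (le_top : Subgroup.zpowers y ≤ ⊤)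
  have hyP' : y ∈ P := hyP (Subgroup.mem_zpowers y)
  have hPp : IsPGroup p P := sylIn_isPGroup hP
  have hP1 : P ≠ ⊥ := by
    intro h
    rw [h] at hyP'
    exact hy1 (Subgroup.mem_bot.mp hyP')
  obtain ⟨z, hzP, hz1, hzc⟩ := exists_central_ne_one hPp hP1
  have hzy : z ∈ Subgroup.centralizer ({y} : Set G) := by
    rw [Subgroup.mem_centralizer_singleton_iff]
    exact (hzc y hyP').symm
  obtain ⟨hzM, hgz⟩ := key y hyM hgy hy1 z hzy
  have hPle : ∀ w ∈ P, w ∈ sigmaCore M ∧ g * w * g⁻¹ ∈ sigmaCore M := by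
    intro w hw
    apply key z hzM hgz hz1 w
    rw [Subgroup.mem_centralizer_singleton_iff]
    exact hzc w hw
  have hpσ : p ∈ sigma M := by
    apply (h1350 M hM).1.2.1 p hp
    rw [← hyo]
    exact Subgroup.orderOf_dvd_natCard _ hyM
  have hPM : P ≤ M := fun w hw => sigmaCore_le M (hPle w hw).1
  have hPsyl : IsSylowIn p P M := sylIn_mono hP hPM le_top
  have hP'M : P.map (MulAut.conj g).toMonoidHom ≤ M := by
    intro w hw
    rw [mem_map_conj_iff] at hw
    have h1 := (hPle _ hw).2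
    have e : g * (g⁻¹ * w * g) * g⁻¹ = w := by group
    rw [e] at h1
    exact sigmaCore_le M h1
  have hP'syl : IsSylowIn p (P.map (MulAut.conj g).toMonoidHom) M := by
    have h1 : IsSylowIn p (P.map (MulAut.conj g).toMonoidHom) ⊤ :=
      sylIn_of_card_eq hP le_top (card_map_conj P g)
    exact sylIn_mono h1 hP'M le_top
  obtain ⟨m, hm, hmeq⟩ := hPsyl.exists_conj hP'syl
  have hfix : P.map (MulAut.conj (m⁻¹ * g)).toMonoidHom = P := by
    rw [← Cfsg.Agent.Lib.Helper35.BG.map_conj_mul, hmeq, Cfsg.Agent.Lib.Helper35.BG.map_conj_mul,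
      inv_mul_cancel, Cfsg.Agent.Lib.Helper35.BG.map_conj_one]
  have hn : m⁻¹ * g ∈ Subgroup.normalizer (P : Set G) := mem_normalizer_of_map_conj_eq hfix
  have hmg : m⁻¹ * g ∈ M := normalizer_le_of_sigma hpσ hPsyl hn
  apply hg
  have e : g = m * (m⁻¹ * g) := by group
  rw [e]
  exact M.mul_mem hm hmg

/-- Under the Frobenius hypothesis, every non-identity element is conjugate into some `M_σ`. -/
theorem cover_of_allFrob [Finite G] (hG : IsMinSimpleOddOrder G)
    (h1350 : type_of% (@Cfsg.CfsgFrozen.S1350 G _ _ hG))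
    (h1375 : type_of% (@Cfsg.CfsgFrozen.S1375 G _ _ hG))
    (h1378 : type_of% (@Cfsg.CfsgFrozen.S1378 G _ _ hG))
    (hF : AllFrob G) (g : G) (hg : g ≠ 1) :
    ∃ M : Subgroup G, IsCoatom M ∧ ∃ a : G, a * g * a⁻¹ ∈ sigmaCore M := by
  obtain ⟨p, hp, hpg⟩ := Nat.exists_prime_and_dvd (orderOf_eq_one_iff.not.mpr hg)
  haveI : Fact p.Prime := ⟨hp⟩
  set y := g ^ (orderOf g / p) with hy_def
  have hyo : orderOf y = p := orderOf_pow_orderOf_div (orderOf_pos g).ne' hpg
  have hy1 : y ≠ 1 := by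
    intro h
    rw [h, orderOf_one] at hyo
    exact hp.one_lt.ne hyo
  have hpG : p ∣ Nat.card G := by
    rw [← hyo]
    exact orderOf_dvd_natCard y
  obtain ⟨M, hM, hpσ⟩ := h1378.1 p hp hpG
  obtain ⟨P, hP, hPM⟩ := exists_sylow_le_sigmaCore hG h1350 M hM p hpσ
  have hQ : IsPGroup p (Subgroup.zpowers y) :=
    IsPGroup.of_card (n := 1) (by rw [Nat.card_zpowers, hyo, pow_one])
  obtain ⟨Q, hQs, hyQ⟩ := exists_isSylowIn_ge hQ (le_top : Subgroup.zpowers y ≤ ⊤)
  obtain ⟨a, -, ha⟩ := hQs.exists_conj hP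
  have hy' : a * y * a⁻¹ ∈ sigmaCore M := by
    apply hPM
    rw [ha]
    exact conj_mem_map_conj a (hyQ (Subgroup.mem_zpowers y))
  have hy1' : a * y * a⁻¹ ≠ 1 := conj_ne_one hy1
  have hgy : g ∈ Subgroup.centralizer ({y} : Set G) := by
    rw [Subgroup.mem_centralizer_singleton_iff]
    exact ((Commute.refl g).pow_right _).eq
  have hc := conj_mem_centralizer_conj hgy a
  refine ⟨M, hM, a, ?_⟩
  exact hF M hM _ hy' hy1'
    (Subgroup.mem_inf.mpr ⟨centralizer_le_of_allFrob hG h1375 hF M hM _ hy' hy1' hc, hc⟩)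

/-- There are two non-conjugate maximal subgroups. -/
theorem exists_nonconj_coatoms [Finite G] (hG : IsMinSimpleOddOrder G)
    (h1350 : type_of% (@Cfsg.CfsgFrozen.S1350 G _ _ hG))
    (h1355 : type_of% (@Cfsg.CfsgFrozen.S1355 G _ _ hG))
    (h1378 : type_of% (@Cfsg.CfsgFrozen.S1378 G _ _ hG)) :
    ∃ M N : Subgroup G, IsCoatom M ∧ IsCoatom N ∧
      ∀ g : G, N ≠ M.map (MulAut.conj g).toMonoidHom := by
  haveI := isSimpleGroup_of hG
  obtain ⟨M, hM, -⟩ := exists_coatom_ge (H := (⊥ : Subgroup G)) bot_ne_top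
  have hlt : sigmaCore M < M := lt_of_le_of_lt (h1355 M hM).2.2.1 (h1355 M hM).2.2.2.1
  have hne : (sigmaCore M).relIndex M ≠ 1 := by
    intro h
    exact (not_le_of_gt hlt) (Subgroup.relIndex_eq_one.mp h)
  obtain ⟨q, hq, hqd⟩ := Nat.exists_prime_and_dvd hne
  have hqσ : q ∉ sigma M := fun h => (h1350 M hM).1.2.2 q hq h hqd
  have hqG : q ∣ Nat.card G :=
    (hqd.trans (Subgroup.relIndex_dvd_card _ _)).trans (Subgroup.card_subgroup_dvd_card M)
  obtain ⟨N, hN, hqN⟩ := h1378.1 q hq hqG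
  refine ⟨M, N, hM, hN, ?_⟩
  intro g h
  rw [h, sigma_map_conj] at hqN
  exact hqσ hqN

/-- Conjugacy of maximal subgroups. -/
def coatomConj (G : Type u) [Group G] : Setoid {M : Subgroup G // IsCoatom M} where
  r M N := ∃ g : G, N.1 = M.1.map (MulAut.conj g).toMonoidHom
  iseqv :=
    { refl := fun M => ⟨1, (Cfsg.Agent.Lib.Helper35.BG.map_conj_one M.1).symm⟩
      symm := by
        rintro M N ⟨g, hg⟩
        exact ⟨g⁻¹, by rw [hg, Cfsg.Agent.Lib.Helper85.BG.map_conj_inv_map_conj]⟩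
      trans := by
        rintro M N K ⟨g, hg⟩ ⟨h, hh⟩
        exact ⟨h * g, by rw [hh, hg, Cfsg.Agent.Lib.Helper35.BG.map_conj_mul]⟩ }

/-- **S1541 assembly core.**  If every maximal subgroup of a minimal simple group of odd order is
a Frobenius group with kernel `M_σ`, we reach a contradiction (through S1526). -/
theorem s1541_core [Finite G] (hG : IsMinSimpleOddOrder G)
    (h1350 : type_of% (@Cfsg.CfsgFrozen.S1350 G _ _ hG))
    (h1355 : type_of% (@Cfsg.CfsgFrozen.S1355 G _ _ hG))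
    (h1375 : type_of% (@Cfsg.CfsgFrozen.S1375 G _ _ hG))
    (h1378 : type_of% (@Cfsg.CfsgFrozen.S1378 G _ _ hG))
    (h1526 : type_of% (@Cfsg.CfsgFrozen.S1526.{u, u} G _ _))
    (hF : AllFrob G) : False := by
  classical
  let ι := Quotient (coatomConj G)
  haveI : Finite ι := Quotient.finite (coatomConj G)
  haveI : Fintype ι := Fintype.ofFinite ι
  let L : ι → Subgroup G := fun i => (Quotient.out i).1
  have hL : ∀ i, IsCoatom (L i) := fun i => (Quotient.out i).2
  have hconj : ∀ i j : ι, (∃ g : G, L j = (L i).map (MulAut.conj g).toMonoidHom) → i = j := by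
    intro i j h
    have h1 : (coatomConj G).r (Quotient.out i) (Quotient.out j) := h
    have h2 : (Quotient.mk (coatomConj G) (Quotient.out i) : ι) =
        Quotient.mk (coatomConj G) (Quotient.out j) := Quotient.sound h1
    rwa [Quotient.out_eq, Quotient.out_eq] at h2
  have hnorm : ∀ i, Subgroup.normalizer ((sigmaCore (L i) : Subgroup G) : Set G) = L i := by
    intro i
    have h1 : L i ≤ Subgroup.normalizer ((sigmaCore (L i) : Subgroup G) : Set G) :=
      sigmaCore_normalizer (L i)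
    have hne : sigmaCore (L i) ≠ ⊥ := by
      intro h
      apply (h1355 (L i) (hL i)).1
      have := (h1355 (L i) (hL i)).2.1
      rw [h] at this
      exact le_bot_iff.mp this
    have hlt : sigmaCore (L i) < L i :=
      lt_of_le_of_lt (h1355 (L i) (hL i)).2.2.1 (h1355 (L i) (hL i)).2.2.2.1
    have hnt : sigmaCore (L i) ≠ ⊤ := fun h => (hL i).1 (top_le_iff.mp (h ▸ hlt.le))
    rcases ((hL i).le_iff).mp h1 with h | h
    · exact absurd h (normalizer_ne_top hG hne hnt)
    · exact h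
  refine h1526 hG.1 (ι := ι) ?_ L (fun i => sigmaCore (L i)) ?_ ?_ ?_ ?_ ?_ ?_ ?_
  · -- two classes
    obtain ⟨M, N, hM, hN, hMN⟩ := exists_nonconj_coatoms hG h1350 h1355 h1378
    have hne : (Quotient.mk (coatomConj G) ⟨M, hM⟩ : ι) ≠ Quotient.mk (coatomConj G) ⟨N, hN⟩ := by
      intro h
      obtain ⟨g, hg⟩ : (coatomConj G).r ⟨M, hM⟩ ⟨N, hN⟩ := Quotient.exact h
      exact hMN g hg
    exact Fintype.one_lt_card_iff.mpr ⟨_, _, hne⟩
  · intro i
    exact lt_of_le_of_lt (h1355 (L i) (hL i)).2.2.1 (h1355 (L i) (hL i)).2.2.2.1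
  · intro i h
    apply (h1355 (L i) (hL i)).1
    have := (h1355 (L i) (hL i)).2.1
    rw [h] at this
    exact le_bot_iff.mp this
  · intro i x hx h hh
    exact (Subgroup.mem_normalizer_iff.mp (sigmaCore_normalizer (L i) hx) h).mp hh
  · intro i h hh hh1
    exact hF (L i) (hL i) h hh hh1
  · intro i j hij
    apply Nat.coprime_of_dvd
    intro p hp h1 h2
    apply hij
    apply hconj
    exact h1378.2 (L i) (L j) (hL i) (hL j)
      ⟨p, sigmaCore_isPi (L i) p hp h1, sigmaCore_isPi (L j) p hp h2⟩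
  · intro i
    refine ⟨?_, hnorm i⟩
    intro g hg x hx hgx
    rw [hnorm i] at hg
    exact sigmaCore_TI_of_allFrob hG h1350 h1375 hF (L i) (hL i) g hg x hx hgx
  · intro g hg
    obtain ⟨M, hM, a, ha⟩ := cover_of_allFrob hG h1350 h1375 h1378 hF g hg
    let i : ι := Quotient.mk (coatomConj G) ⟨M, hM⟩
    obtain ⟨b, hb⟩ : (coatomConj G).r (Quotient.out i) ⟨M, hM⟩ :=
      Quotient.mk_out (s := coatomConj G) ⟨M, hM⟩
    have hb' : L i = M.map (MulAut.conj b⁻¹).toMonoidHom := by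
      have : M = (L i).map (MulAut.conj b).toMonoidHom := hb
      rw [this, Cfsg.Agent.Lib.Helper85.BG.map_conj_inv_map_conj]
    refine ⟨i, b⁻¹ * a, ?_⟩
    have h1 := conj_mem_sigmaCore_map ha b⁻¹
    have e : b⁻¹ * a * g * (b⁻¹ * a)⁻¹ = b⁻¹ * (a * g * a⁻¹) * b⁻¹⁻¹ := by group
    show b⁻¹ * a * g * (b⁻¹ * a)⁻¹ ∈ sigmaCore (L i)
    rw [e, hb']
    exact h1

/-- `κ(M) = ∅` and `τ₂(M) = ∅` for all maximal subgroups give the Frobenius hypothesis
(through S1432). -/
theorem allFrob_of_kappa_tau2 [Finite G] (hG : IsMinSimpleOddOrder G)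
    (h1350 : type_of% (@Cfsg.CfsgFrozen.S1350 G _ _ hG))
    (h1432 : type_of% (@Cfsg.CfsgFrozen.S1432 G _ _ hG))
    (hκ : ∀ M : Subgroup G, IsCoatom M → kappa M = ∅)
    (hτ : ∀ M : Subgroup G, IsCoatom M → tau2 M = ∅) : AllFrob G := by
  intro M hM x hx hx1 c hc
  obtain ⟨a, b, hab, ha, hb, hπa, hπb⟩ := exists_pi_decomp (sigma M) c
  have hzp : Subgroup.zpowers c ≤ M ⊓ Subgroup.centralizer ({x} : Set G) := by
    rw [Subgroup.zpowers_le]
    exact hc
  have hb1 : b = 1 := by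
    by_contra hb1
    obtain ⟨p, hp, hpb⟩ := Nat.exists_prime_and_dvd (orderOf_eq_one_iff.not.mpr hb1)
    rcases h1432 M hM x hx hx1 b (hzp hb) hb1 hπb with ⟨h, -⟩ | ⟨h, -⟩
    · have := h p hp hpb
      rw [hκ M hM] at this
      exact this
    · have := h p hp hpb
      rw [hτ M hM] at this
      exact this
  rw [hb1, mul_one] at hab
  rw [hab]
  have haM : Subgroup.zpowers a ≤ M := by
    rw [Subgroup.zpowers_le]
    exact (Subgroup.mem_inf.mp (hzp ha)).1
  have hle : Subgroup.zpowers a ≤ sigmaCore M := by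
    apply le_of_coprime_relIndex (sigmaCore_le M) (sigmaCore_normalizer M) haM
    rw [Nat.card_zpowers]
    apply Nat.coprime_of_dvd
    intro q hq h1 h2
    exact (h1350 M hM).1.2.2 q hq (hπa q hq h1) h2
  exact hle (Subgroup.mem_zpowers a)

/-- **S1541 from the internal PF (12.7) theorem**: if all `κ(M)` and all `τ₂(M)` are empty,
we reach a contradiction. -/
theorem s1541_core' [Finite G] (hG : IsMinSimpleOddOrder G)
    (h1350 : type_of% (@Cfsg.CfsgFrozen.S1350 G _ _ hG))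
    (h1355 : type_of% (@Cfsg.CfsgFrozen.S1355 G _ _ hG))
    (h1375 : type_of% (@Cfsg.CfsgFrozen.S1375 G _ _ hG))
    (h1378 : type_of% (@Cfsg.CfsgFrozen.S1378 G _ _ hG))
    (h1432 : type_of% (@Cfsg.CfsgFrozen.S1432 G _ _ hG))
    (h1526 : type_of% (@Cfsg.CfsgFrozen.S1526.{u, u} G _ _))
    (hκ : ∀ M : Subgroup G, IsCoatom M → kappa M = ∅)
    (hτ : ∀ M : Subgroup G, IsCoatom M → tau2 M = ∅) : False :=
  s1541_core hG h1350 h1355 h1375 h1378 h1526
    (allFrob_of_kappa_tau2 hG h1350 h1432 hκ hτ)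

end Cfsg.Agent.Lib.Helper29.PF12
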